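import Cfsg.Agent.VAN.Lin.Psu
import Cfsg.Agent.VAN.Sm.SpSix
import Cfsg.Agent.H347.EPX.GThreeData
import Cfsg.Agent.H332.EPO.CentD4
import Cfsg.Agent.H653.Sieve.Col
import Cfsg.Agent.H570.Ore.Blk
import Cfsg.Agent.H845.OZ.CongCongr
import Cfsg.Agent.CharactersDeep.RChar

/-!
# S4942: the group `G₂(3)` (helper78)

The triple: elements of orders `7`, `13` and `6`.  A non-trivial character which does not vanish at the first two and which is
not of defect zero for `2` or `3` has degree `6`, `27` or `162` (blocks of defect one).  The degree `6` is excluded by an elementary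
abelian subgroup of order `8`, the other two by Kawanaka's sum over the `3`-elements.
-/

set_option autoImplicit false
set_option maxRecDepth 100000
set_option Elab.async false

namespace Cfsg.Agent.VAN.Sm.GTwoThree

open Cfsg Subgroup Cfsg.Agent.Characters Cfsg.Agent.H727.TC Cfsg.Agent.H730.OZ Cfsg.Agent.H732.VZ
open scoped ComplexConjugate

section abs

variable {G : Type} [Group G] [Finite G]

omit [Finite G] in
/-- the sum of a class function over a union of classes -/
theorem sum_dvd [Fintype G] {f : G → ℂ} (hf : ∀ g c, f (c * g * c⁻¹) = f g) (hi : ∀ g, IsIntegral ℤ (f g)) (S : Finset G)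
    (hS : ∀ g ∈ S, ∀ c, c * g * c⁻¹ ∈ S) {n : ℕ} (h : ∀ g ∈ S, f g = 0 ∨ n ∣ (centralizer ({g} : Set G)).index) :
    ∃ α : ℂ, IsIntegral ℤ α ∧ ∑ g ∈ S, f g = n * α := by
  classical
  rw [← Finset.sum_fiberwise_of_maps_to (g := ConjClasses.mk) (t := S.image ConjClasses.mk)
    fun g hg => Finset.mem_image_of_mem _ hg]
  refine Finset.sum_induction _ (fun z => ∃ α : ℂ, IsIntegral ℤ α ∧ z = n * α) ?_ ⟨0, isIntegral_zero, by simp⟩ ?_
  · rintro _ _ ⟨a, ha, rfl⟩ ⟨b, hb, rfl⟩
    exact ⟨a + b, ha.add hb, by ring⟩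
  · intro c hc
    obtain ⟨g, hg, rfl⟩ := Finset.mem_image.1 hc
    have h1 : (S.filter fun x => ConjClasses.mk x = ConjClasses.mk g) = Finset.univ.filter fun x => IsConj g x := by
      ext x
      simp only [Finset.mem_filter, Finset.mem_univ, true_and, ConjClasses.mk_eq_mk_iff_isConj]
      refine ⟨fun h2 => h2.2.symm, fun h2 => ⟨?_, h2.symm⟩⟩
      obtain ⟨c, rfl⟩ := isConj_iff.1 h2
      exact hS g hg c
    have h2 : ∑ x ∈ Finset.univ.filter (fun x => IsConj g x), f x = (centralizer ({g} : Set G)).index * f g := by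
      rw [Finset.sum_congr rfl (g := fun _ => f g) fun x hx => by
        obtain ⟨c, rfl⟩ := isConj_iff.1 (Finset.mem_filter.1 hx).2
        exact hf g c, Finset.sum_const, nsmul_eq_mul, CentralCharacter.index_centralizer_eq_card, Nat.card_eq_fintype_card,
        Fintype.card_subtype]
    rw [h1, h2]
    rcases h g hg with h3 | ⟨k, h3⟩
    · exact ⟨0, isIntegral_zero, by rw [h3]; simp⟩
    · refine ⟨k * f g, (isIntegral_natCast k).mul (hi g), ?_⟩
      rw [h3]
      push_cast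
      ring

/-- a large divisor of the degree prime to the class size -/
theorem zero_of_big (χ : IrrCharacter G) (h1 : (χ : G → ℂ) ≠ 1) {n : ℕ} (hn0 : 0 < n) (hn : n ∣ charDegree (χ : G → ℂ)) {g : G}
    (hc : Nat.Coprime (centralizer ({g} : Set G)).index n) (hb : Nat.card (centralizer ({g} : Set G)) ≤ n ^ 2) :
    (χ : G → ℂ) g = 0 := by
  have := Fintype.ofFinite G
  have : NeZero (Nat.card G) := ⟨Nat.card_pos.ne'⟩
  by_contra h
  have hint := isIntegral_div' χ hn hc
  have hs : ∀ m : ℕ, m.Coprime (Nat.card G) → ∃ σ : ℂ ≃+* ℂ, ∀ ψ : G → ℂ, IsCharacter G ψ → σ (ψ g) = ψ (g ^ m) := by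
    intro m hm
    obtain ⟨σ, hσ⟩ := GaloisBasic.exists_ringEquiv_of_coprime (G := G) hm
    exact ⟨σ, fun ψ hψ => hσ ψ hψ g⟩
  have h2 := le_sum_norm_sq_mul χ h hn0 fun m hm => by
    obtain ⟨σ, hσ⟩ := hs m hm
    have h2 : (χ : G → ℂ) (g ^ m) / (n : ℂ) = σ ((χ : G → ℂ) g / (n : ℂ)) := by
      rw [map_div₀, map_natCast, hσ _ (Core.isIrr_isCharacter χ.2)]
    rw [h2]
    exact hint.map σ.toRingHom.toIntAlgHom
  have h3 : ∑ m : (ZMod (Nat.card G))ˣ, Complex.normSq ((χ : G → ℂ) (g ^ (m : ZMod (Nat.card G)).val))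
      < ∑ _m : (ZMod (Nat.card G))ˣ, (n : ℝ) ^ 2 := by
    refine Finset.sum_lt_sum_of_nonempty ⟨1, Finset.mem_univ _⟩ fun m _ => ?_
    have h4 := H293.Conj.normSq_le_sub_one χ.2 h1 (g ^ (m : ZMod (Nat.card G)).val)
    have h5 : centralizer ({g ^ (m : ZMod (Nat.card G)).val} : Set G) ≤ centralizer ({g} : Set G) := by
      intro y hy
      rw [mem_centralizer_singleton_iff] at hy ⊢
      have h6 := (ZMod.val_coe_unit_coprime m).coprime_dvd_right (orderOf_dvd_natCard g)
      obtain ⟨k, hk⟩ := exists_pow_eq_self_of_coprime h6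
      have h7 := ((show Commute y (g ^ (m : ZMod (Nat.card G)).val) from hy).pow_right k).eq
      rwa [hk] at h7
    have h6 : (Nat.card (centralizer ({g ^ (m : ZMod (Nat.card G)).val} : Set G)) : ℝ) ≤ (n : ℝ) ^ 2 := by
      exact_mod_cast (card_le_of_le h5).trans hb
    linarith
  rw [Finset.sum_const, nsmul_eq_mul, Finset.card_univ] at h3
  linarith

/-- the homomorphism of an involution -/
def sg {a : G} (ha : a * a = 1) : ℤˣ →* G :=
  MonoidHom.mk' (fun u => if u = 1 then 1 else a) fun u v => by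
    rcases Int.units_eq_one_or u with rfl | rfl <;> rcases Int.units_eq_one_or v with rfl | rfl <;> simp [ha]

omit [Finite G] in
theorem sg_one {a : G} (ha : a * a = 1) : sg ha 1 = 1 := map_one _

omit [Finite G] in
theorem sg_neg {a : G} (ha : a * a = 1) : sg ha (-1) = a := by
  show (if (-1 : ℤˣ) = 1 then (1 : G) else a) = a
  exact if_neg (by decide)

omit [Finite G] in
theorem sg_comm {a b : G} (ha : a * a = 1) (h : Commute a b) (u : ℤˣ) : Commute (sg ha u) b := by
  rcases Int.units_eq_one_or u with rfl | rfl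
  · rw [sg_one]; exact Commute.one_left _
  · rwa [sg_neg]

/-- the sum over three commuting involutions -/
theorem sum_eight {χ : G → ℂ} (hχ : IsIrrCharacter G χ) {a b c : G} (ha : a * a = 1) (hb : b * b = 1) (hc : c * c = 1)
    (hab : Commute a b) (hac : Commute a c) (hbc : Commute b c) : ∃ m : ℕ,
    χ 1 + χ c + (χ b + χ (b * c)) + (χ a + χ (a * c) + (χ (a * b) + χ (a * (b * c)))) = m * 8 := by
  have k1 : ∀ u v, Commute (sg hb u) (sg hc v) := fun u v => sg_comm hb (sg_comm hc hbc.symm v).symm u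
  let f2 : ℤˣ × ℤˣ →* G := (sg hb).noncommCoprod (sg hc) k1
  have k2 : ∀ u v, Commute (sg ha u) (f2 v) := fun u v =>
    sg_comm ha (Commute.mul_right (sg_comm hb hab.symm v.1).symm (sg_comm hc hac.symm v.2).symm) u
  let f : ℤˣ × ℤˣ × ℤˣ →* G := (sg ha).noncommCoprod f2 k2
  have hf : ∀ u v w, f (u, v, w) = sg ha u * (sg hb v * sg hc w) := fun _ _ _ => rfl
  obtain ⟨m, hm⟩ := H570.Ore.Blk.exists_sum_hom (G := G) ⟨χ, hχ⟩ f
  refine ⟨m, ?_⟩
  have h8 : (Nat.card (ℤˣ × ℤˣ × ℤˣ) : ℂ) = 8 := by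
    rw [Nat.card_eq_fintype_card]
    norm_num
  rw [h8] at hm
  rw [← hm]
  have hu : ∀ F : ℤˣ → ℂ, ∑ u, F u = F 1 + F (-1) := fun F => by
    rw [UnitsInt.univ, Finset.sum_pair (by decide)]
  simp only [Fintype.sum_prod_type, hu, hf, sg_one, sg_neg, one_mul, mul_one]

theorem cent_eq {r : ℕ} {x : G} (hx : orderOf x = r) (h : Nat.card (centralizer ({x} : Set G)) ≤ r) :
    Nat.card (centralizer ({x} : Set G)) = r := by
  refine le_antisymm h (Nat.le_of_dvd Nat.card_pos ?_)
  rw [← hx]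
  exact Subgroup.orderOf_dvd_natCard _ (mem_centralizer_singleton_iff.2 rfl)

theorem degs {d : ℕ} (hd : d ∣ 4245696) (h7 : d % 7 = 1 ∨ d % 7 = 6) (h13 : d % 13 = 1 ∨ d % 13 = 12 ∨ d % 13 = 6 ∨ d % 13 = 7) :
    64 ∣ d ∨ 729 ∣ d ∨ d = 1 ∨ d = 6 ∨ d = 27 ∨ d = 162 := by
  have h1 : Nat.Coprime d (7 * 13) := by
    refine Nat.Coprime.mul_right ?_ ?_
    · rw [Nat.coprime_comm, Nat.Prime.coprime_iff_not_dvd (by norm_num)]; omega
    · rw [Nat.coprime_comm, Nat.Prime.coprime_iff_not_dvd (by norm_num)]; omega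
  have h2 : d ∣ 2 ^ 6 * 3 ^ 6 := h1.dvd_of_dvd_mul_right (by norm_num; exact hd)
  obtain ⟨a, b, ha, hb, rfl⟩ := (Nat.dvd_mul).1 h2
  obtain ⟨i, hi, rfl⟩ := (Nat.dvd_prime_pow Nat.prime_two).1 ha
  obtain ⟨j, hj, rfl⟩ := (Nat.dvd_prime_pow Nat.prime_three).1 hb
  interval_cases i <;> interval_cases j <;> omega

/-- **the abstract form** -/
theorem van3_abs [IsSimpleGroup G] (hna : ¬ IsMulCommutative G) (hN : Nat.card G = 4245696) (hK : Kaw 3 G)
    (h7 : ∀ x : G, orderOf x = 7 → Nat.card (centralizer ({x} : Set G)) ≤ 7)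
    (h13 : ∀ x : G, orderOf x = 13 → Nat.card (centralizer ({x} : Set G)) ≤ 13)
    {z : G} (hz2 : 2 ∣ orderOf z) (hz3 : 3 ∣ orderOf z)
    (hu : ∀ u : G, u ^ 729 = 1 → u ≠ 1 → (Nat.Coprime (centralizer ({u} : Set G)).index 81 ∧
      Nat.card (centralizer ({u} : Set G)) ≤ 81 ^ 2) ∨ 32 ∣ (centralizer ({u} : Set G)).index)
    {t : G} (ht : t ≠ 1) (h2 : ∀ u : G, u * u = 1 → u ≠ 1 → IsConj t u) {a b c : G} (ha : a * a = 1) (hb : b * b = 1)
    (hc : c * c = 1) (hab : Commute a b) (hac : Commute a c) (hbc : Commute b c)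
    (hne : a ≠ 1 ∧ b ≠ 1 ∧ c ≠ 1 ∧ a * b ≠ 1 ∧ a * c ≠ 1 ∧ b * c ≠ 1 ∧ a * (b * c) ≠ 1) : Van3 G := by
  classical
  have := Fintype.ofFinite G
  have : Finite (IrrCharacter G) := Core.finite_irr
  have := Fintype.ofFinite (IrrCharacter G)
  have f7 : Fact (Nat.Prime 7) := ⟨by norm_num⟩
  have f13 : Fact (Nat.Prime 13) := ⟨by norm_num⟩
  obtain ⟨x, hx⟩ := exists_prime_orderOf_dvd_card' (G := G) 7 (by rw [hN]; norm_num)
  obtain ⟨y, hy⟩ := exists_prime_orderOf_dvd_card' (G := G) 13 (by rw [hN]; norm_num)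
  have ix : Isol G 3 7 x := Lin.isol_of f7.out (by norm_num) (by norm_num) (fun w hw =>
    ⟨isCyclic_of_prime_card (cent_eq hw (h7 w hw)), by rw [cent_eq hw (h7 w hw)]; norm_num⟩) hx
  have iy : Isol G 3 13 y := Lin.isol_of f13.out (by norm_num) (by norm_num) (fun w hw =>
    ⟨isCyclic_of_prime_card (cent_eq hw (h13 w hw)), by rw [cent_eq hw (h13 w hw)]; norm_num⟩) hy
  obtain ⟨-, W, -, -, -, cW⟩ := H653.Sieve.exists_col hna hN hx (k := 1) (cent_eq hx (h7 x hx)) 6 1
    [(0, 0), (1, 1), (6, -1)] 0 false (by decide +kernel)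
  obtain ⟨-, W', -, -, -, cW'⟩ := H653.Sieve.exists_col hna hN hy (k := 1) (cent_eq hy (h13 y hy)) 6 2
    [(0, 0), (1, 2), (12, -2), (6, -1), (7, 1)] 0 false (by decide +kernel)
  have hv : (Nat.card G).factorization 3 = 6 := by
    rw [hN, show 4245696 = 3 ^ 6 * 5824 by norm_num, Nat.factorization_mul (by norm_num) (by norm_num), Finsupp.add_apply,
      Nat.Prime.factorization_pow Nat.prime_three, Finsupp.single_eq_same,
      Nat.factorization_eq_zero_of_not_dvd (by norm_num)]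
  refine Rk.van3_of_mid Nat.prime_three hK x y hz3 fun χ hm => ?_
  obtain ⟨h1, h1', m, e, he, hs, hm0, hm1⟩ := id hm
  have n7 := ix.not_dvd χ (isPPart_self f7.out hx) (mem_zpowers x) h1
  have n13 := iy.not_dvd χ (isPPart_self f13.out hy) (mem_zpowers y) h1'
  have c7 := ix.cong Nat.prime_three χ n7 hs
  have c13 := iy.cong Nat.prime_three χ n13 hs
  rw [hv] at hm1
  obtain ⟨rfl, rfl⟩ : e = 1 ∧ m = 6 := by
    rcases he with rfl | rfl <;> interval_cases m <;> omega
  have hd : (χ : G → ℂ) 1 = (charDegree (χ : G → ℂ) : ℂ) := (H686.CharKit.charDegree_irr χ).symm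
  have r7 := cW.mem χ
  have r13 := cW'.mem χ
  simp only [H653.Sieve.deg, List.mem_cons, Prod.mk.injEq, List.not_mem_nil, or_false] at r7 r13
  have hne1 : (χ : G → ℂ) ≠ 1 := fun h => not_mid_one Nat.prime_three hK x y (by
    rwa [show χ = H65.Ore.one1 G from Subtype.ext h] at hm)
  have hcl : ∀ g c : G, (χ : G → ℂ) (c * g * c⁻¹) = (χ : G → ℂ) g := fun g c => Core.isIrr_isClassFunction χ.2 g c
  have key : (∀ u : G, u ≠ 1 → Nat.Coprime (centralizer ({u} : Set G)).index 81 →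
      Nat.card (centralizer ({u} : Set G)) ≤ 81 ^ 2 → (χ : G → ℂ) u = 0) → 32 ∣ 728 * charDegree (χ : G → ℂ) := by
    intro h0
    obtain ⟨α, hα, h3⟩ := sum_dvd hcl (CharactersDeep.RChar.isIntegral_character (Core.isIrr_isCharacter χ.2))
      ((Finset.univ.filter (· ∈ pSet 3 G)).erase 1) (n := 32) (fun g hg c => by
        rw [Finset.mem_erase, Finset.mem_filter] at hg ⊢
        obtain ⟨h4, -, k, hk⟩ := hg
        refine ⟨fun h5 => h4 (conj_eq_one_iff.1 h5), Finset.mem_univ _, k, ?_⟩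
        rw [← hk]
        exact (MulAut.conj c).orderOf_eq g) fun g hg => by
        rw [Finset.mem_erase, Finset.mem_filter] at hg
        obtain ⟨h4, -, k, hk⟩ := hg
        have h5 : 3 ^ k ∣ 3 ^ 6 := by
          refine (Nat.Coprime.pow_left k (show Nat.Coprime 3 5824 by norm_num)).dvd_of_dvd_mul_right ?_
          rw [← hk, show 3 ^ 6 * 5824 = 4245696 by norm_num, ← hN]
          exact orderOf_dvd_natCard g
        rcases hu g (orderOf_dvd_iff_pow_eq_one.1 (hk ▸ h5)) h4 with h6 | h6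
        · exact Or.inl (h0 g h4 h6.1 h6.2)
        · exact Or.inr h6
    rw [finsum_pSet, ← Finset.add_sum_erase _ _ (a := 1)
      (Finset.mem_filter.2 ⟨Finset.mem_univ _, 0, by simp⟩), h3, hd] at hs
    have h4 := CharactersDeep.RChar.dvd_of_isIntegral (p := 32) (by norm_num)
      (m := ((728 * charDegree (χ : G → ℂ) : ℕ) : ℤ)) hα (by
        push_cast at hs ⊢
        linear_combination -hs)
    exact_mod_cast h4
  rcases degs (hN ▸ charDegree_dvd_card χ) (by omega) (by omega) with h | h | h | h | h | h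
  · refine Rk.zero_of_dvd χ.2 Nat.prime_two hd (fun k hk => ?_) hz2
    refine Dvd.dvd.trans ?_ h
    refine (Nat.Coprime.pow_left k (show Nat.Coprime 2 66339 by norm_num)).dvd_of_dvd_mul_right ?_
    rwa [show 64 * 66339 = 4245696 by norm_num, ← hN]
  · refine Rk.zero_of_dvd χ.2 Nat.prime_three hd (fun k hk => ?_) hz3
    refine Dvd.dvd.trans ?_ h
    refine (Nat.Coprime.pow_left k (show Nat.Coprime 3 5824 by norm_num)).dvd_of_dvd_mul_right ?_
    rwa [show 729 * 5824 = 4245696 by norm_num, ← hN]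
  · refine absurd (H653.Sieve.one_of_deg (by rw [hN]; norm_num) χ h) hne1
  · exfalso
    obtain ⟨k, hk⟩ := sum_eight χ.2 ha hb hc hab hac hbc
    have h3 : ∀ u : G, u * u = 1 → u ≠ 1 → (χ : G → ℂ) u = (χ : G → ℂ) t := fun u h4 h5 => by
      obtain ⟨w, rfl⟩ := isConj_iff.1 (h2 u h4 h5)
      exact hcl t w
    have sq : ∀ {u v : G}, u * u = 1 → v * v = 1 → Commute u v → u * v * (u * v) = 1 := fun {u v} h4 h5 h6 => by
      rw [← pow_two, h6.mul_pow, pow_two, pow_two, h4, h5, mul_one]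
    obtain ⟨n1, n2, n3, n4, n5, n6, n8⟩ := hne
    rw [h3 a ha n1, h3 b hb n2, h3 c hc n3, h3 _ (sq ha hb hab) n4, h3 _ (sq ha hc hac) n5, h3 _ (sq hb hc hbc) n6,
      h3 _ (sq ha (sq hb hc hbc) (hab.mul_right hac)) n8, hd, h] at hk
    have h4 := CharactersDeep.RChar.dvd_of_isIntegral (p := 7) (by norm_num) (m := 8 * (k : ℤ) - 6)
      (CharactersDeep.RChar.isIntegral_character (Core.isIrr_isCharacter χ.2) t) (by
        push_cast at hk ⊢
        linear_combination -hk)
    obtain ⟨w, hw⟩ := h4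
    have h5 : (χ : G → ℂ) t = w := by
      have h6 : ((8 * (k : ℤ) - 6 : ℤ) : ℂ) = ((7 * w : ℤ) : ℂ) := by exact_mod_cast hw
      push_cast at hk h6
      linear_combination (1 / 7 : ℂ) * (hk + h6)
    obtain ⟨g, hg⟩ := H716.VzOut.exists_zero χ.2 (by rw [hd, h]; norm_num)
    have h6 := norm_ne hna χ hg ht
    have h8 : ‖(χ : G → ℂ) t‖ ≤ charDegree (χ : G → ℂ) := SchurBound.norm_le (Core.isIrr_isCharacter χ.2) hd t
    rw [h5, h, Complex.norm_intCast] at h6 h8
    have h9 : |w| ≤ 6 := by exact_mod_cast h8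
    have h10 : |w| ≠ 6 := fun h10 => h6 (by exact_mod_cast h10)
    have h11 := abs_le.1 h9
    have h12 : w ≠ 6 := fun h12 => h10 (by rw [h12]; rfl)
    omega
  · have h3 := key fun u h4 h5 _ => zero_of_coprime hna χ.2 hne1 h4 (by
      rw [h]
      exact h5.coprime_dvd_right (by norm_num))
    rw [h] at h3
    norm_num at h3
  · have h3 := key fun u _ h5 h6 => zero_of_big χ hne1 (by norm_num) (by rw [h]; norm_num) h5 h6
    rw [h] at h3
    norm_num at h3

end abs

open Cfsg.Agent.H347.HX Cfsg.Agent.H347.HX.G23 Cfsg.Agent.H347.EPX.GThree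

theorem nodup_mk : ((lst.map fun p => (p.1, bd p.2.l)).map fun p => ConjClasses.mk p.1).Nodup := by
  rw [List.map_map]
  have hd := lst_key
  rw [List.map_congr_left fun p hp => List.map_congr_left fun t _ => (cn_eq (lst_Rp p hp) t).symm] at hd
  let φ : ConjClasses A → List ℕ := fun c =>
    Quotient.liftOn c (fun x => ts.map fun t => cn t x) fun a b hab => List.map_congr_left fun t _ => cn_isConj t hab
  have hcomp : (lst.map fun p => ts.map fun t => cn t p.1) = (lst.map fun p => ConjClasses.mk p.1).map φ := by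
    rw [List.map_map]
    rfl
  rw [hcomp] at hd
  exact List.Nodup.of_map _ hd

theorem lst_dvd : ∀ p ∈ lst, bd p.2.l ∣ 4245696 := by
  intro p hp
  simp only [lst, List.mem_cons, List.not_mem_nil, or_false] at hp
  rcases hp with rfl | rfl | rfl | rfl | rfl | rfl | rfl | rfl | rfl | rfl | rfl | rfl | rfl | rfl | rfl | rfl | rfl | rfl | rfl | rfl | rfl | rfl | rfl
  all_goals exact Nat.dvd_of_mod_eq_zero (by decide +kernel)

/-- the exact orders of the centralizers -/
theorem cent_lst : ∀ p ∈ lst, Nat.card ↥(centralizer ({p.1} : Set A)) = bd p.2.l := by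
  intro p hp
  refine H332.EPO.D4.exact_of_list (K := ⊤) inferInstance (lst.map fun p => (p.1, bd p.2.l)) (fun _ _ => mem_top _)
    (fun q hq => ?_) nodup_mk ?_ (fun q hq => ?_) (p.1, bd p.2.l) (List.mem_map.2 ⟨p, hp, rfl⟩)
  · obtain ⟨r, hr, rfl⟩ := List.mem_map.1 hq
    exact card_le (lst_Rp r hr) hbase (lst_run r hr)
  · rw [List.map_map, card_top]
    exact lst_sum
  · obtain ⟨r, hr, rfl⟩ := List.mem_map.1 hq
    rw [card_A]
    exact lst_dvd r hr

theorem three_lst : ∀ p ∈ lst, p.1 ^ 729 = 1 → p.1 = 1 ∨ (Nat.Coprime (4245696 / bd p.2.l) 81 ∧ bd p.2.l ≤ 81 ^ 2) ∨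
    32 ∣ 4245696 / bd p.2.l := by
  intro p hp
  have hR := lst_Rp p hp
  simp only [lst, List.mem_cons, List.not_mem_nil, or_false] at hp
  rcases hp with rfl | rfl | rfl | rfl | rfl | rfl | rfl | rfl | rfl | rfl | rfl | rfl | rfl | rfl | rfl | rfl | rfl | rfl | rfl | rfl | rfl | rfl | rfl
  · exact fun _ => Or.inl wr_nil
  all_goals
    first
      | exact fun _ => Or.inr (by decide +kernel)
      | exact fun h => absurd h (pow_ne hR (by decide +kernel))

theorem inv_lst : ∀ p ∈ lst, p.1 ^ 2 = 1 → p.1 = 1 ∨ p.1 = ev s (wr [4, 1]) := by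
  intro p hp
  have hR := lst_Rp p hp
  simp only [lst, List.mem_cons, List.not_mem_nil, or_false] at hp
  rcases hp with rfl | rfl | rfl | rfl | rfl | rfl | rfl | rfl | rfl | rfl | rfl | rfl | rfl | rfl | rfl | rfl | rfl | rfl | rfl | rfl | rfl | rfl | rfl
  · exact fun _ => Or.inl wr_nil
  · exact fun _ => Or.inr rfl
  all_goals exact fun h => absurd h (pow_ne hR (by decide +kernel))

theorem rep {u : A} {k : ℕ} (hk : u ^ k = 1) (h1 : u ≠ 1) : ∃ p ∈ lst, IsConj p.1 u ∧ p.1 ^ k = 1 ∧ p.1 ≠ 1 := by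
  obtain ⟨p, hp, h⟩ := complete hbase ts lst lst_Rp lst_run lst_key lst_sum u
  obtain ⟨c, rfl⟩ := isConj_iff.1 h
  refine ⟨p, hp, h, ?_, fun h2 => h1 (by rw [h2, mul_one, mul_inv_cancel])⟩
  rwa [conj_pow, conj_eq_one_iff] at hk

theorem van3_A : Van3 A := by
  have := simple
  obtain ⟨e⟩ := iso.2.2
  have hK : Kaw 3 A := H845.OZ.Kaw.congr e.symm
    (H279.OZ.kaw_of_hasRGD Nat.prime_three (Nodes.RGDChev.hasRGD_G2 (ZMod 3) 3))
  have hz : orderOf (ev s [1, 2]) = 6 := by
    refine orderOf_eq_of_pow_and_pow_div_prime (by norm_num)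
      (pow_eq_one_of (Rp.ev rp_s [1, 2]) (by decide +kernel)) fun p hp hd => ?_
    have h1 := Nat.le_of_dvd (by norm_num) hd
    interval_cases p
    · exact absurd hp (by norm_num)
    · exact absurd hp (by norm_num)
    · exact pow_ne (Rp.ev rp_s [1, 2]) (by decide +kernel)
    · exact pow_ne (Rp.ev rp_s [1, 2]) (by decide +kernel)
    · exact absurd hp (by norm_num)
    · exact absurd hd (by norm_num)
    · exact absurd hp (by norm_num)
  refine van3_abs not_comm card_A hK data_A.seven data_A.thirteen (z := ev s [1, 2]) (by rw [hz]; norm_num)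
    (by rw [hz]; norm_num) (fun u h1 h2 => ?_) (t := ev s (wr [4, 1])) ?_ (fun u h1 h2 => ?_)
    (a := ev s [2]) (b := ev s [4]) (c := ev s [0, 2, 0]) ?_ ?_ ?_ ?_ ?_ ?_ ⟨?_, ?_, ?_, ?_, ?_, ?_, ?_⟩
  · obtain ⟨p, hp, h3, h4, h5⟩ := rep h1 h2
    have h6 : Nat.card (centralizer ({u} : Set A)) = bd p.2.l := by rw [← H347.EPX.GThree.card_cent h3, cent_lst p hp]
    have h7 : (centralizer ({u} : Set A)).index = 4245696 / bd p.2.l := by
      rw [← card_A, ← h6, ← (centralizer ({u} : Set A)).card_mul_index, Nat.mul_div_cancel_left _ Nat.card_pos]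
    rw [h6, h7]
    exact (three_lst p hp h4).resolve_left h5
  · have h1 := pow_ne (k := 1) (Rp.ev rp_s (wr [4, 1])) (by decide +kernel)
    rwa [pow_one] at h1
  · obtain ⟨p, hp, h3, h4, h5⟩ := rep (k := 2) (by rw [pow_two, h1]) h2
    rwa [(inv_lst p hp h4).resolve_left h5] at h3
  · rw [mulw]; exact key (v := []) (by decide +kernel)
  · rw [mulw]; exact key (v := []) (by decide +kernel)
  · rw [mulw]; exact key (v := []) (by decide +kernel)
  · show _ * _ = _ * _
    rw [mulw, mulw]; exact key (by decide +kernel)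
  · show _ * _ = _ * _
    rw [mulw, mulw]; exact key (by decide +kernel)
  · show _ * _ = _ * _
    rw [mulw, mulw]; exact key (by decide +kernel)
  · exact ne_of (v := []) 8 (by decide +kernel)
  · exact ne_of (v := []) 8 (by decide +kernel)
  · exact ne_of (v := []) 8 (by decide +kernel)
  · rw [mulw]; exact ne_of (v := []) 0 (by decide +kernel)
  · rw [mulw]; exact ne_of (v := []) 8 (by decide +kernel)
  · rw [mulw]; exact ne_of (v := []) 8 (by decide +kernel)
  · rw [mulw, mulw]; exact ne_of (v := []) 8 (by decide +kernel)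

end GTwoThree

/-- **`G₂(3)`** -/
theorem van3_g2_three {F : Type*} [Field F] [Fintype F] (h : Fintype.card F = 3) : Van3 ↥(Lie.chevG2.group F) := by
  classical
  have σ : ZMod 3 ≃+* F := ZMod.ringEquivOfPrime F Nat.prime_three h
  obtain ⟨e⟩ := H347.HX.G23.iso.2.2
  exact GTwoThree.van3_A.of_equiv (e.trans (ChevalleyStructure.FieldIso.groupEquiv Lie.chevG2 σ))

end Cfsg.Agent.VAN.Sm
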